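import Mathlib
import Cfsg.Agent.Lib.Helper36.Stb.Defs

/-!
# STB team project, package (ALT): alternating sum over subsets
-/

set_option autoImplicit false

namespace Cfsg.Agent.Lib.Helper25.Stb

universe v

theorem sum_powerset_neg_one_pow_card_complex (x : Finset ℕ) :
    (∑ m ∈ x.powerset, (-1 : ℂ) ^ m.card) = if x = ∅ then 1 else 0 := by
  have h := Finset.sum_powerset_neg_one_pow_card (x := x)
  have h2 : ((∑ m ∈ x.powerset, (-1 : ℤ) ^ m.card : ℤ) : ℂ) = ((if x = ∅ then 1 else 0 : ℤ) : ℂ) := by
    rw [h]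
  push_cast at h2
  rw [h2]

theorem pkgAlt : Cfsg.Agent.Lib.Helper36.Stb.PkgAlt.{v} := by
  intro ι W R asc f w0 hw0 hsub huniq h0
  classical
  have step1 : ∀ J ∈ R.powerset,
      (-1 : ℂ) ^ J.card * (∑ w ∈ W.filter (fun w => J ⊆ asc w), f w) =
        ∑ w ∈ W, (if J ⊆ asc w then (-1 : ℂ) ^ J.card * f w else 0) := by
    intro J _
    rw [Finset.mul_sum, Finset.sum_filter]
  rw [Finset.sum_congr rfl step1, Finset.sum_comm]
  have step2 : ∀ w ∈ W,
      (∑ J ∈ R.powerset, (if J ⊆ asc w then (-1 : ℂ) ^ J.card * f w else 0)) =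
        if asc w = ∅ then f w else 0 := by
    intro w hw
    rw [← Finset.sum_filter]
    have hfil : R.powerset.filter (fun J => J ⊆ asc w) = (asc w).powerset := by
      ext J
      simp only [Finset.mem_filter, Finset.mem_powerset]
      constructor
      · exact fun h => h.2
      · exact fun h => ⟨h.trans (hsub w hw), h⟩
    rw [hfil, ← Finset.sum_mul, sum_powerset_neg_one_pow_card_complex]
    split_ifs <;> simp
  rw [Finset.sum_congr rfl step2, Finset.sum_eq_single w0]
  · rw [if_pos h0]
  · intro w hw hne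
    rw [if_neg]
    intro h
    exact hne (huniq w hw h)
  · intro h
    exact absurd hw0 h

end Cfsg.Agent.Lib.Helper25.Stb
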