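import Mathlib
import Cfsg.Agent.Lib.Helper36.Stb.Defs

/-!
# STB team project, package (ORB): fixed points on `G / K` through double coset representatives
-/

set_option autoImplicit false

namespace Cfsg.Agent.Lib.Helper25.Stb

universe u v

theorem pkgOrb : Cfsg.Agent.Lib.Helper36.Stb.PkgOrb.{u, v} := by
  intro G _ _ B K ι I n S h1 h2 h3 b
  classical
  -- the maps `x S_i ↦ x n_i K`
  let φ : ∀ i : I, (↥B ⧸ (S i).subgroupOf B) → G ⧸ K := fun i =>
    Quotient.lift (fun x : B => (QuotientGroup.mk ((x : G) * n i) : G ⧸ K)) (by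
      intro x y hxy
      have hxy' : x⁻¹ * y ∈ (S i).subgroupOf B := QuotientGroup.leftRel_apply.mp hxy
      rw [Subgroup.mem_subgroupOf] at hxy'
      apply QuotientGroup.eq.mpr
      have hmem : ((x : G)⁻¹ * (y : G)) ∈ B := B.mul_mem (B.inv_mem x.2) y.2
      have := (h3 i i.2 _ hmem).mpr (by simpa using hxy')
      have he : ((x : G) * n i)⁻¹ * ((y : G) * n i) = (n i)⁻¹ * ((x : G)⁻¹ * (y : G)) * n i := by
        group
      rw [he]
      exact this)
  have hφ_mk : ∀ (i : I) (x : B), φ i (QuotientGroup.mk x) = QuotientGroup.mk ((x : G) * n i) :=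
    fun _ _ => rfl
  have hφ_idx : ∀ (i j : I) (x y : B),
      (QuotientGroup.mk ((x : G) * n i) : G ⧸ K) = QuotientGroup.mk ((y : G) * n j) → i = j := by
    intro i j x y h
    have hk : ((x : G) * n i)⁻¹ * ((y : G) * n j) ∈ K := QuotientGroup.eq.mp h
    apply Subtype.ext
    apply h2 i i.2 j j.2
    refine ⟨(y : G)⁻¹ * (x : G), B.mul_mem (B.inv_mem y.2) x.2, _, hk, ?_⟩
    group
  have hφ_inj : ∀ i : I, Function.Injective (φ i) := by
    intro i q1 q2
    induction q1 using QuotientGroup.induction_on with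
    | H x =>
      induction q2 using QuotientGroup.induction_on with
      | H y =>
        intro h
        rw [hφ_mk, hφ_mk] at h
        have hk : ((x : G) * n i)⁻¹ * ((y : G) * n i) ∈ K := QuotientGroup.eq.mp h
        have he : ((x : G) * n i)⁻¹ * ((y : G) * n i) = (n i)⁻¹ * ((x : G)⁻¹ * (y : G)) * n i := by
          group
        rw [he] at hk
        have hmem : ((x : G)⁻¹ * (y : G)) ∈ B := B.mul_mem (B.inv_mem x.2) y.2
        have hS := (h3 i i.2 _ hmem).mp hk
        apply QuotientGroup.eq.mpr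
        rw [Subgroup.mem_subgroupOf]
        simpa using hS
  have hφ_smul : ∀ (i : I) (q : ↥B ⧸ (S i).subgroupOf B), (b : G) • φ i q = φ i (b • q) := by
    intro i q
    induction q using QuotientGroup.induction_on with
    | H x =>
      rw [hφ_mk, MulAction.Quotient.smul_mk, MulAction.Quotient.smul_mk, hφ_mk]
      simp [mul_assoc]
  let Φ : (Σ i : I, ↥(MulAction.fixedBy (↥B ⧸ (S i).subgroupOf B) b)) →
      ↥(MulAction.fixedBy (G ⧸ K) (b : G)) := fun p =>
    ⟨φ p.1 p.2.1, by
      rw [MulAction.mem_fixedBy, hφ_smul]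
      exact congrArg (φ p.1) p.2.2⟩
  have hΦ : Function.Bijective Φ := by
    constructor
    · rintro ⟨i, ⟨q1, hq1⟩⟩ ⟨j, ⟨q2, hq2⟩⟩ h
      have h' : φ i q1 = φ j q2 := congrArg Subtype.val h
      have hij : i = j := by
        induction q1 using QuotientGroup.induction_on with
        | H x =>
          induction q2 using QuotientGroup.induction_on with
          | H y =>
            rw [hφ_mk, hφ_mk] at h'
            exact hφ_idx i j x y h'
      subst hij
      have hq : q1 = q2 := hφ_inj i h'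
      subst hq
      rfl
    · rintro ⟨q, hq⟩
      induction q using QuotientGroup.induction_on with
      | H g =>
        obtain ⟨i, hi, x, hx, k, hk, hg⟩ := h1 g
        have hqeq : (QuotientGroup.mk g : G ⧸ K) = φ ⟨i, hi⟩ (QuotientGroup.mk ⟨x, hx⟩) := by
          rw [hφ_mk]
          apply QuotientGroup.eq.mpr
          rw [hg]
          have : (x * n i * k)⁻¹ * (x * n i) = k⁻¹ := by group
          show (x * n i * k)⁻¹ * (x * n i) ∈ K
          rw [this]
          exact K.inv_mem hk
        have hfix : b • (QuotientGroup.mk ⟨x, hx⟩ : ↥B ⧸ (S i).subgroupOf B) =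
            QuotientGroup.mk ⟨x, hx⟩ := by
          apply hφ_inj ⟨i, hi⟩
          rw [← hφ_smul, ← hqeq]
          exact hq
        refine ⟨⟨⟨i, hi⟩, ⟨QuotientGroup.mk ⟨x, hx⟩, hfix⟩⟩, ?_⟩
        apply Subtype.ext
        exact hqeq.symm
  rw [← Nat.card_congr (Equiv.ofBijective Φ hΦ), Nat.card_sigma]
  exact Finset.sum_coe_sort I
    (fun i => Nat.card ↥(MulAction.fixedBy (↥B ⧸ (S i).subgroupOf B) b))

end Cfsg.Agent.Lib.Helper25.Stb
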